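import Cfsg.Agent.Tw.BN
import Cfsg.Agent.Tw.InvTF4

/-! Centralisers of involutions in the large Ree groups lie in parabolic subgroups. -/

set_option autoImplicit false

namespace Cfsg.Agent.Tw

open Cfsg.Lie Cfsg.Agent.Chev Equiv

theorem mem_WJ_of_fix {D : ChevalleyDatum} {C : Cert D} {a b : Rt D} (c d : ℤ) {w : Perm (Rt D)} (hw : w ∈ C.W)
    (ha : w a = a) (hb : w b = b) {J : Set (Nd D)} (h : ∀ j, 0 ≤ c * C.A a (C.sp j) + d * C.A b (C.sp j) ∧
      (c * C.A a (C.sp j) + d * C.A b (C.sp j) = 0 → j ∈ J)) : w ∈ C.WJ J := by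
  have e : ∀ r, (c • C.prL a + d • C.prL b) (C.rc r) = c * C.A a r + d * C.A b r := fun r => by simp [C.prL_rc]
  refine C.WJ_mono (fun j hj => (h j).2 (e _ ▸ hj.2)) (Cert.dom_unique (J := Set.univ)
    (f := c • C.prL a + d • C.prL b) (fun j _ => e _ ▸ (h j).1) hw fun j _ => ?_)
  rw [e, ← ha, ← hb, Cert.Aut.A_map (C.W_le_Aut hw), Cert.Aut.A_map (C.W_le_Aut hw)]
  exact (h j).1

theorem Stb.Good.prime_dvd_B {D : ChevalleyDatum} {C : Cert D} {F : Type*} [Field F] [Finite F] {G : Type*} [Group G]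
    [Finite G] {S : Sys C F G} {T : Stb S} {K : Subgroup G} (hK : T.Good K) (hφ : Function.Injective S.φ) (p : ℕ)
    [Fact p.Prime] [CharP F p] {r : ℕ} (hr : r.Prime) (h : r ∣ Nat.card ↥(S.B ⊓ K)) : r = p ∨ r ∣ Nat.card F - 1 := by
  have : Fact r.Prime := ⟨hr⟩
  rw [hK.card_B, hr.dvd_mul] at h
  refine h.imp (fun h => ?_) fun h => ?_
  · obtain ⟨n, hn⟩ := ((S.isPGroup_Up p).to_inf_left (K := K)).exists_card_eq
    exact (Nat.prime_dvd_prime_iff_eq hr Fact.out).1 (hr.dvd_of_dvd_pow (hn ▸ h))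
  · obtain ⟨a, ha⟩ := exists_prime_orderOf_dvd_card' r h
    rw [← ha, ← Subgroup.orderOf_coe]
    exact orderOf_dvd_of_pow_eq_one (S.pow_card_sub_one hφ a.2.1)

variable {F : Type*} [Field F] [Finite F] [CharP F 2] {φ : F ≃+* F} {K : Subgroup (chevF4.group F)}

theorem centTF4 (hK : (stbF4 φ).Good K) (i : Fin 2) (hy : pw (certF4.sys F) ([[47, 44], [39, 45]].getD i []) ∈ K)
    {g : chevF4.group F} (hg : g ∈ K) (h : g * pw (certF4.sys F) ([[47, 44], [39, 45]].getD i []) * g⁻¹ =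
      pw (certF4.sys F) ([[47, 44], [39, 45]].getD i [])) : ∃ j, g ∈ (certF4.sys F).P ((stbF4 φ).orb j) := by
  obtain ⟨w, hw, hc⟩ := (certF4.sys F).exists_cell g
  have h0 := Stb.cj_eq_of_cell (hK.fix g hg) hc
  have key : ∀ (a : Rt chevF4) (c d : ℤ) (j : Nd chevF4), pw (certF4.sys F) ([[47, 44], [39, 45]].getD i []) =
      pw (certF4.sys F) [a, barF4 a] → (24 ≤ (a : ℕ) ∧ a < barF4 a ∧ (∀ r, a ≤ barF4 r → ∀ s, a ≤ barF4 s → ∀ u,
        (∀ k, certF4.rc u k = certF4.rc r k + certF4.rc s k) → a ≤ barF4 u) ∧ (∀ r, a ≤ r → a ≤ barF4 r → lenF4 r = lenF4 a →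
        certF4.A r (barF4 r) = certF4.A a (barF4 a) → r = a) ∧
        ∀ k, 0 ≤ c * certF4.A a (certF4.sp k) + d * certF4.A (barF4 a) (certF4.sp k) ∧
          (c * certF4.A a (certF4.sp k) + d * certF4.A (barF4 a) (certF4.sp k) = 0 → Fin.revPerm.SameCycle j k)) →
      ∃ j, g ∈ (certF4.sys F).P ((stbF4 φ).orb j) := by
    rintro a c d j e ⟨h1, h2, h3, h4, h5⟩
    have h6 : ∀ r, a ≤ r → certF4.Pos r := fun r hr => ((certF4.pos_iff_val a).2 (by change 48 ≤ _; omega)).of_le hr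
    rw [e, pw_cons, pw_cons, pw_nil, mul_one, xn_val, xn_val] at h hy
    have h7 := hK.lead (h6 a le_rfl) one_ne_zero ((certF4.sys F).x_mem_U (by exact ⟨h6 _ h2.le, h2⟩) 1) hy
      (fun r hr s hs u e => by have := h3 r hr.2 s hs.2 u (congrFun e); exact ⟨h6 _ this, this⟩) hg h hc
    have h8 : w (barF4 a) = barF4 (w a) := by nth_rw 1 [← h0]; exact (stbF4 φ).cj_apply w a
    have h9 := h4 _ h7.1 (h8 ▸ h7.2) (by
      have := Cert.Aut.len_map (certF4.W_le_Aut hw) a; rw [certF4_len, certF4_len] at this; exact_mod_cast this)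
      (h8 ▸ Cert.Aut.A_map (certF4.W_le_Aut hw) a (barF4 a))
    exact ⟨j, hc.mem_P (mem_WJ_of_fix c d hw h9 (by rw [h8, h9]) h5)⟩
  fin_cases i
  · exact key ⟨44, by decide⟩ 1 1 ⟨1, by decide⟩ (eqW_sound (by decide +kernel)) (by decide +kernel)
  · exact key ⟨39, by decide⟩ 3 4 ⟨0, by decide⟩ rfl (by decide +kernel)

end Cfsg.Agent.Tw
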